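import Mathlib
import Cfsg.Agent.Lib.Helper32.OPG.Defs
import Cfsg.Agent.Lib.Helper32.OPG.Main
import Cfsg.Agent.Lib.Helper32.OPG.Line
import Cfsg.Agent.Lib.Helper42.OPG.RedX
import Cfsg.Agent.Lib.Helper42.OPG.RedY
import Cfsg.Agent.Lib.Helper67.Siegel.Param
import Cfsg.Agent.Lib.Helper67.Siegel.ComR
import Cfsg.Agent.Lib.Helper76.Siegel.Exist
import Cfsg.Agent.Lib.Helper76.Siegel.Alg
import Cfsg.Agent.Lib.Helper21.Siegel.Conj
import Cfsg.Agent.Lib.Helper5.SLGen

/-!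
# Project CHO (S1082): `Ω(quadFormPlus n F)` is generated by the root elements — EVERY field

`F` an arbitrary field (no finiteness, every characteristic), `n ≥ 3`, in the vocabulary of the
projects Siegel / OPG (`Iso n F`, `E i`, `Fv i`, `IsSiegel`, `T`, `HasX/HasY/HasZ`):

* `root_mem_omega` : the root elements `X_{ij}(c)`, `Y_{ij}(c)`, `Z_{ij}(c)` lie in `Ω`;
* `siegOm_any` : every Siegel transvection group `T p r` lies in `Ω`;
* `omega_le_of_root` : a subgroup containing all root elements contains `Ω`;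
* `K0_eq_omega` : `Ω` is the subgroup generated by all Siegel transvections.
-/

set_option autoImplicit false
set_option linter.unusedSimpArgs false
set_option linter.unusedVariables false
open scoped Matrix

namespace Cfsg.Agent.Lib.Helper67.CHO

open Cfsg.Agent.Lib.Helper31.Siegel Cfsg.Agent.Lib.Helper32.Siegel Cfsg.Agent.Lib.Helper32.OPG
open Cfsg.Agent.Lib.Helper42.OPG

universe u

/-- [RED] for every field (landed packages). -/
theorem pkgRedAny : PkgRed.{u} :=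
  Cfsg.Agent.Lib.Helper32.OPG.pkgRed_of Cfsg.Agent.Lib.Helper42.OPG.pkgRedX
    Cfsg.Agent.Lib.Helper42.OPG.pkgRedY

/-- [LINE] for every field (landed packages). -/
theorem pkgLineAny : PkgLine.{u} := Cfsg.Agent.Lib.Helper32.OPG.pkgLine_of pkgRedAny

section

variable {n : ℕ} {F : Type u} [Field F]

/-- the set of all Siegel transvections -/
def siegSet (n : ℕ) (F : Type u) [Field F] : Set ↥(Iso n F) :=
  {σ | ∃ (p r : Vec n F) (c : F), IsSingLine p r ∧ IsSiegel p r c σ}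

/-- the subgroup generated by all Siegel transvections -/
def K0 (n : ℕ) (F : Type u) [Field F] : Subgroup ↥(Iso n F) := Subgroup.closure (siegSet n F)

theorem siegel_mem_K0 {p r : Vec n F} (h : IsSingLine p r) {c : F} {σ : ↥(Iso n F)}
    (hσ : IsSiegel p r c σ) : σ ∈ K0 n F :=
  Subgroup.subset_closure ⟨p, r, c, h, hσ⟩

theorem isSiegel_conj {p r : Vec n F} {c : F} {σ : ↥(Iso n F)} (hσ : IsSiegel p r c σ)
    (g : ↥(Iso n F)) : IsSiegel (mat g *ᵥ p) (mat g *ᵥ r) c (g * σ * g⁻¹) := by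
  intro v
  have h1 : B (mat g⁻¹ *ᵥ v) r = B v (mat g *ᵥ r) := by
    rw [← B_act g, act_inv]
  have h2 : B (mat g⁻¹ *ᵥ v) p = B v (mat g *ᵥ p) := by
    rw [← B_act g, act_inv]
  rw [mul_act, mul_act, hσ, Matrix.mulVec_sub, Matrix.mulVec_add, Matrix.mulVec_smul,
    Matrix.mulVec_smul, act_inv, h1, h2]

theorem K0_normal : (K0 n F).Normal := by
  have h : K0 n F = Subgroup.normalClosure (siegSet n F) := by
    apply le_antisymm
    · exact Subgroup.closure_le_normalClosure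
    · unfold Subgroup.normalClosure K0
      apply Subgroup.closure_mono
      intro g hg
      obtain ⟨g₀, hg₀, hconj⟩ := Group.mem_conjugatesOfSet_iff.mp hg
      obtain ⟨k, rfl⟩ := isConj_iff.mp hconj
      obtain ⟨p, r, c, hpr, hσ⟩ := hg₀
      exact ⟨mat k *ᵥ p, mat k *ᵥ r, c,
        (Cfsg.Agent.Lib.Helper21.Siegel.pkgConj n F p r hpr k).1, isSiegel_conj hσ k⟩
  rw [h]
  exact Subgroup.normalClosure_normal

/-! ## Root elements are commutators -/

theorem comm_mem_omega (σ τ : ↥(Iso n F)) :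
    σ * τ * σ⁻¹ * τ⁻¹ ∈ Cfsg.Omega F (Cfsg.quadFormPlus n F) := by
  have h := Subgroup.commutator_mem_commutator (Subgroup.mem_top σ) (Subgroup.mem_top τ)
  rw [commutatorElement_def] at h
  exact h

/-- a Siegel element of the line `(s, p)` is a commutator, given a partner pair `(r, t)`. -/
theorem siegel_mem_omega_of {p r s t : Vec n F} (hpr : IsSingLine p r) (hst : IsSingLine s t)
    (h1 : B p s = 0) (h2 : B p t = 0) (h3 : B r s = 0) (h4 : B r t = 1) (c : F)
    (σ : ↥(Iso n F)) (hσ : IsSiegel s p c σ) : σ ∈ Cfsg.Omega F (Cfsg.quadFormPlus n F) := by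
  obtain ⟨a, ha⟩ := Cfsg.Agent.Lib.Helper76.Siegel.pkgExist n F p r hpr c
  obtain ⟨b, hb⟩ := Cfsg.Agent.Lib.Helper76.Siegel.pkgExist n F s t hst 1
  have hc := Cfsg.Agent.Lib.Helper67.Siegel.pkgComr n F p r s t hpr hst h1 h2 h3 h4 c 1 a b ha hb
  rw [mul_one] at hc
  rw [isSiegel_ext hσ hc]
  exact comm_mem_omega a b

theorem exists_third (hn : 3 ≤ n) (i j : Fin n) : ∃ k : Fin n, k ≠ i ∧ k ≠ j := by
  by_contra hcon
  have h : ∀ k : Fin n, k = i ∨ k = j := by
    intro k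
    by_contra hk
    exact hcon ⟨k, fun h => hk (Or.inl h), fun h => hk (Or.inr h)⟩
  have h0 := h ⟨0, by omega⟩
  have h1 := h ⟨1, by omega⟩
  have h2 := h ⟨2, by omega⟩
  rcases h0 with h0 | h0 <;> rcases h1 with h1 | h1 <;> rcases h2 with h2 | h2 <;>
    (have e0 := congrArg Fin.val h0
     have e1 := congrArg Fin.val h1
     have e2 := congrArg Fin.val h2
     simp only at e0 e1 e2
     omega)

theorem isSingLine_Fv_E {i j : Fin n} (hij : i ≠ j) : IsSingLine (Fv i : Vec n F) (E j) :=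
  isSingLine_of (E i) (Fv j) (by rw [B_Fv_E, if_pos rfl]) (by rw [B_E_E])
    (by rw [B_E_Fv, if_pos rfl]) (Q_Fv i) (Q_E j) (by rw [B_Fv_E, if_neg hij])

/-- the root elements lie in `Ω` (every field, `n ≥ 3`). -/
theorem root_mem_omega (hn : 3 ≤ n) :
    HasX Set.univ (Cfsg.Omega F (Cfsg.quadFormPlus n F)) ∧
    HasY Set.univ (Cfsg.Omega F (Cfsg.quadFormPlus n F)) ∧
    HasZ Set.univ (Cfsg.Omega F (Cfsg.quadFormPlus n F)) := by
  refine ⟨?_, ?_, ?_⟩
  · intro i j _ _ hij c σ hσ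
    obtain ⟨k, hki, hkj⟩ := exists_third hn i j
    exact siegel_mem_omega_of (p := Fv j) (r := Fv k) (s := E i) (t := E k)
      (isSingLine_Fv_Fv (Ne.symm hkj)) (isSingLine_E_E (Ne.symm hki))
      (by rw [B_Fv_E, if_neg (Ne.symm hij)]) (by rw [B_Fv_E, if_neg (Ne.symm hkj)])
      (by rw [B_Fv_E, if_neg hki]) (by rw [B_Fv_E, if_pos rfl]) c σ hσ
  · intro i j _ _ hij c σ hσ
    obtain ⟨k, hki, hkj⟩ := exists_third hn i j
    exact siegel_mem_omega_of (p := E j) (r := E k) (s := E i) (t := Fv k)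
      (isSingLine_E_E (Ne.symm hkj)) (isSingLine_E_Fv (Ne.symm hki))
      (by rw [B_E_E]) (by rw [B_E_Fv, if_neg (Ne.symm hkj)])
      (by rw [B_E_E]) (by rw [B_E_Fv, if_pos rfl]) c σ hσ
  · intro i j _ _ hij c σ hσ
    obtain ⟨k, hki, hkj⟩ := exists_third hn i j
    exact siegel_mem_omega_of (p := Fv j) (r := Fv k) (s := Fv i) (t := E k)
      (isSingLine_Fv_Fv (Ne.symm hkj)) (isSingLine_Fv_E (Ne.symm hki))
      (by rw [B_Fv_Fv]) (by rw [B_Fv_E, if_neg (Ne.symm hkj)])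
      (by rw [B_Fv_Fv]) (by rw [B_Fv_E, if_pos rfl]) c σ hσ

/-- every Siegel transvection group lies in `Ω` (every field, `n ≥ 3`). -/
theorem siegOm_any (hn : 3 ≤ n) (p r : Vec n F) (h : IsSingLine p r) :
    T p r ≤ Cfsg.Omega F (Cfsg.quadFormPlus n F) := by
  obtain ⟨hX, hY, hZ⟩ := root_mem_omega (F := F) hn
  exact pkgLineAny n F hn _ hX hY hZ p r h

/-! ## Stabilisers of frame vectors -/

/-- the isometries fixing `e_i, f_i` for all `i ∈ s`. -/
def fixSub (s : Set (Fin n)) : Subgroup ↥(Iso n F) where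
  carrier := {σ | ∀ i ∈ s, mat σ *ᵥ (E i : Vec n F) = E i ∧ mat σ *ᵥ (Fv i : Vec n F) = Fv i}
  mul_mem' := by
    intro a b ha hb i hi
    rw [mul_act, mul_act, (hb i hi).1, (hb i hi).2]
    exact ha i hi
  one_mem' := by
    intro i _
    rw [one_act, one_act]
    exact ⟨rfl, rfl⟩
  inv_mem' := by
    intro a ha i hi
    constructor
    · have h := inv_act a (E i : Vec n F)
      rw [(ha i hi).1] at h
      exact h
    · have h := inv_act a (Fv i : Vec n F)
      rw [(ha i hi).2] at h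
      exact h

theorem mem_fixSub {s : Set (Fin n)} {σ : ↥(Iso n F)} :
    σ ∈ fixSub (F := F) s ↔
      ∀ i ∈ s, mat σ *ᵥ (E i : Vec n F) = E i ∧ mat σ *ᵥ (Fv i : Vec n F) = Fv i := Iff.rfl

/-- the isometries fixing the vector `x`. -/
def fixVec (x : Vec n F) : Subgroup ↥(Iso n F) where
  carrier := {σ | mat σ *ᵥ x = x}
  mul_mem' := by
    intro a b ha hb
    have ha' : mat a *ᵥ x = x := ha
    have hb' : mat b *ᵥ x = x := hb
    show mat (a * b) *ᵥ x = x
    rw [mul_act, hb', ha']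
  one_mem' := one_act x
  inv_mem' := by
    intro a ha
    have ha' : mat a *ᵥ x = x := ha
    have h := inv_act a x
    rw [ha'] at h
    exact h

theorem mem_fixVec {x : Vec n F} {σ : ↥(Iso n F)} : σ ∈ fixVec x ↔ mat σ *ᵥ x = x := Iff.rfl

theorem act_coord_inl {σ : ↥(Iso n F)} {i : Fin n} (hσ : mat σ *ᵥ (Fv i : Vec n F) = Fv i)
    (v : Vec n F) : (mat σ *ᵥ v) (Sum.inl i) = v (Sum.inl i) := by
  calc (mat σ *ᵥ v) (Sum.inl i) = B (mat σ *ᵥ v) (Fv i) := (B_Fv _ i).symm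
    _ = B (mat σ *ᵥ v) (mat σ *ᵥ (Fv i : Vec n F)) := by rw [hσ]
    _ = B v (Fv i) := B_act σ v _
    _ = v (Sum.inl i) := B_Fv v i

theorem act_coord_inr {σ : ↥(Iso n F)} {i : Fin n} (hσ : mat σ *ᵥ (E i : Vec n F) = E i)
    (v : Vec n F) : (mat σ *ᵥ v) (Sum.inr i) = v (Sum.inr i) := by
  calc (mat σ *ᵥ v) (Sum.inr i) = B (mat σ *ᵥ v) (E i) := (B_E _ i).symm
    _ = B (mat σ *ᵥ v) (mat σ *ᵥ (E i : Vec n F)) := by rw [hσ]
    _ = B v (E i) := B_act σ v _
    _ = v (Sum.inr i) := B_E v i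

theorem X_fix {i j k : Fin n} {c : F} {σ : ↥(Iso n F)} (h : IsSiegel (E i) (Fv j) c σ)
    (hki : k ≠ i) (hkj : k ≠ j) :
    mat σ *ᵥ (E k : Vec n F) = E k ∧ mat σ *ᵥ (Fv k : Vec n F) = Fv k := by
  constructor
  · rw [X_act h]; simp [hki, hkj, Ne.symm hki, Ne.symm hkj]
  · rw [X_act h]; simp [hki, hkj, Ne.symm hki, Ne.symm hkj]

theorem Y_fix {i j k : Fin n} {c : F} {σ : ↥(Iso n F)} (h : IsSiegel (E i) (E j) c σ)
    (hki : k ≠ i) (hkj : k ≠ j) :
    mat σ *ᵥ (E k : Vec n F) = E k ∧ mat σ *ᵥ (Fv k : Vec n F) = Fv k := by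
  constructor
  · rw [Y_act h]; simp [hki, hkj, Ne.symm hki, Ne.symm hkj]
  · rw [Y_act h]; simp [hki, hkj, Ne.symm hki, Ne.symm hkj]

theorem Z_fix {i j k : Fin n} {c : F} {σ : ↥(Iso n F)} (h : IsSiegel (Fv i) (Fv j) c σ)
    (hki : k ≠ i) (hkj : k ≠ j) :
    mat σ *ᵥ (E k : Vec n F) = E k ∧ mat σ *ᵥ (Fv k : Vec n F) = Fv k := by
  constructor
  · rw [Z_act h]; simp [hki, hkj, Ne.symm hki, Ne.symm hkj]
  · rw [Z_act h]; simp [hki, hkj, Ne.symm hki, Ne.symm hkj]

theorem X_fixE {i j : Fin n} {c : F} {σ : ↥(Iso n F)} (h : IsSiegel (E i) (Fv j) c σ)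
    (hij : i ≠ j) : mat σ *ᵥ (E i : Vec n F) = E i := by
  rw [X_act h]; simp [hij, Ne.symm hij]

theorem Y_fixE {i j : Fin n} {c : F} {σ : ↥(Iso n F)} (h : IsSiegel (E i) (E j) c σ) :
    mat σ *ᵥ (E i : Vec n F) = E i := by
  rw [Y_act h]; simp

/-! ## Clearing the second frame vector -/

theorem clear_aux (j : Fin n) (S : Set (Fin n)) (hj : j ∈ S) (K : Subgroup ↥(Iso n F))
    (hX : ∀ i, i ∈ S → i ≠ j → ∀ (c : F) (σ : ↥(Iso n F)), IsSiegel (E j) (Fv i) c σ → σ ∈ K)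
    (hY : ∀ i, i ∈ S → i ≠ j → ∀ (c : F) (σ : ↥(Iso n F)), IsSiegel (E j) (E i) c σ → σ ∈ K)
    (s : Finset (Fin n)) :
    ∀ w : Vec n F, w (Sum.inr j) = 1 →
      (∀ i, i ∉ S → w (Sum.inl i) = 0 ∧ w (Sum.inr i) = 0) →
      (∀ i, i ∉ s → i ≠ j → w (Sum.inl i) = 0 ∧ w (Sum.inr i) = 0) →
      ∃ g ∈ K, (mat g *ᵥ w) (Sum.inr j) = 1 ∧
        ∀ i, i ≠ j → (mat g *ᵥ w) (Sum.inl i) = 0 ∧ (mat g *ᵥ w) (Sum.inr i) = 0 := by
  classical
  induction s using Finset.induction_on with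
  | empty =>
    intro w h1 _ h0
    exact ⟨1, K.one_mem, by rw [one_act]; exact h1,
      fun i hi => by rw [one_act]; exact h0 i (Finset.notMem_empty i) hi⟩
  | insert a s ha ih =>
    intro w h1 hS h0
    by_cases haj : a = j
    · apply ih w h1 hS
      intro i hi hij
      apply h0 i _ hij
      rw [Finset.mem_insert]
      rintro (h | h)
      · exact hij (h.trans haj)
      · exact hi h
    · by_cases haS : a ∈ S
      · obtain ⟨σ₁, hσ₁⟩ := Cfsg.Agent.Lib.Helper76.Siegel.pkgExist n F (E j) (E a)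
          (isSingLine_E_E (Ne.symm haj)) (w (Sum.inl a))
        obtain ⟨σ₂, hσ₂⟩ := Cfsg.Agent.Lib.Helper76.Siegel.pkgExist n F (E j) (Fv a)
          (isSingLine_E_Fv (Ne.symm haj)) (w (Sum.inr a))
        have hσ₁K := hY a haS haj _ σ₁ hσ₁
        have hσ₂K := hX a haS haj _ σ₂ hσ₂
        have hw₁ : mat σ₁ *ᵥ w =
            w + (w (Sum.inl a) * w (Sum.inr a)) • (E j : Vec n F) - (w (Sum.inl a)) • E a := by
          rw [Y_act hσ₁, h1, mul_one]
        have e1 : (w + (w (Sum.inl a) * w (Sum.inr a)) • (E j : Vec n F)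
            - (w (Sum.inl a)) • (E a : Vec n F)) (Sum.inl a) = 0 := by
          simp [haj]
        have e2 : (w + (w (Sum.inl a) * w (Sum.inr a)) • (E j : Vec n F)
            - (w (Sum.inl a)) • (E a : Vec n F)) (Sum.inr j) = 1 := by
          simp [h1]
        have hw₂ : mat σ₂ *ᵥ (mat σ₁ *ᵥ w) =
            w + (w (Sum.inl a) * w (Sum.inr a)) • (E j : Vec n F) - (w (Sum.inl a)) • E a
              - (w (Sum.inr a)) • Fv a := by
          rw [X_act hσ₂, hw₁, e1, e2, mul_zero, zero_smul, add_zero, mul_one]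
        obtain ⟨g, hg, hg1, hg0⟩ := ih (mat σ₂ *ᵥ (mat σ₁ *ᵥ w))
          (by rw [hw₂]; simp [h1, haj, Ne.symm haj])
          (by
            intro i hi
            have hia : i ≠ a := fun h => hi (h ▸ haS)
            have hij : i ≠ j := fun h => hi (h ▸ hj)
            rw [hw₂]
            simp [hS i hi, hia, hij])
          (by
            intro i hi hij
            rw [hw₂]
            by_cases hia : i = a
            · rw [hia]
              have haj' : a ≠ j := haj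
              simp [haj']
            · have h := h0 i (by simp [hia, hi]) hij
              simp [h.1, h.2, hia, hij])
        refine ⟨g * (σ₂ * σ₁), K.mul_mem hg (K.mul_mem hσ₂K hσ₁K), ?_, ?_⟩
        · rw [mul_act, mul_act]; exact hg1
        · intro i hi; rw [mul_act, mul_act]; exact hg0 i hi
      · apply ih w h1 hS
        intro i hi hij
        by_cases hia : i = a
        · rw [hia]; exact hS a haS
        · exact h0 i (by simp [hia, hi]) hij

/-! ## Frame reduction -/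

theorem E_ne_zero (j : Fin n) : (E j : Vec n F) ≠ 0 := by
  intro h
  have h1 := congrFun h (Sum.inl j)
  simp at h1

theorem frame_red (K : Subgroup ↥(Iso n F)) (hX : HasX Set.univ K) (hY : HasY Set.univ K)
    (hZ : HasZ Set.univ K) (g : ↥(Iso n F)) (i₀ : Fin n) (s : Finset (Fin n)) :
    i₀ ∉ s → ∃ k ∈ K, k * g ∈ fixSub (F := F) (↑s : Set (Fin n)) := by
  classical
  induction s using Finset.induction_on with
  | empty =>
    intro _
    exact ⟨1, K.one_mem, fun i hi => absurd hi (by simp)⟩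
  | insert j s hj ih =>
    intro hi₀
    have hi₀s : i₀ ∉ s := fun h => hi₀ (Finset.mem_insert_of_mem h)
    have hji₀ : j ≠ i₀ := fun h => hi₀ (h ▸ Finset.mem_insert_self j s)
    obtain ⟨k, hk, hkg⟩ := ih hi₀s
    have hXS : HasX {i | i ∉ s} (K ⊓ fixSub (F := F) (↑s : Set (Fin n))) := by
      intro a b ha hb hab c σ hσ
      refine ⟨hX a b (Set.mem_univ _) (Set.mem_univ _) hab c σ hσ, ?_⟩
      intro i hi
      exact X_fix hσ (fun h => ha (by rw [← h]; exact hi)) (fun h => hb (by rw [← h]; exact hi))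
    have hYS : HasY {i | i ∉ s} (K ⊓ fixSub (F := F) (↑s : Set (Fin n))) := by
      intro a b ha hb hab c σ hσ
      refine ⟨hY a b (Set.mem_univ _) (Set.mem_univ _) hab c σ hσ, ?_⟩
      intro i hi
      exact Y_fix hσ (fun h => ha (by rw [← h]; exact hi)) (fun h => hb (by rw [← h]; exact hi))
    have hZS : HasZ {i | i ∉ s} (K ⊓ fixSub (F := F) (↑s : Set (Fin n))) := by
      intro a b ha hb hab c σ hσ
      refine ⟨hZ a b (Set.mem_univ _) (Set.mem_univ _) hab c σ hσ, ?_⟩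
      intro i hi
      exact Z_fix hσ (fun h => ha (by rw [← h]; exact hi)) (fun h => hb (by rw [← h]; exact hi))
    -- first vector
    have hp0 : mat (k * g) *ᵥ (E j : Vec n F) ≠ 0 := by
      intro h
      have h1 := inv_act (k * g) (E j : Vec n F)
      rw [h, Matrix.mulVec_zero] at h1
      exact E_ne_zero j h1.symm
    have hpQ : QF n F (mat (k * g) *ᵥ (E j : Vec n F)) = 0 := by rw [Q_act]; exact Q_E j
    have hpS : ∀ i, i ∉ {i | i ∉ s} → (mat (k * g) *ᵥ (E j : Vec n F)) (Sum.inl i) = 0 ∧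
        (mat (k * g) *ᵥ (E j : Vec n F)) (Sum.inr i) = 0 := by
      intro i hi
      have his : i ∈ s := by
        by_contra h
        exact hi h
      have hij : i ≠ j := fun h => hj (h ▸ his)
      rw [act_coord_inl (hkg i his).2, act_coord_inr (hkg i his).1]
      simp [hij]
    obtain ⟨k₁, hk₁, hk₁p⟩ := pkgRedAny n F {i | i ∉ s} j i₀ hj hi₀s hji₀ _ hXS hYS hZS _ hp0 hpQ hpS
    have hfix : k₁ * (k * g) ∈ fixSub (F := F) (↑s : Set (Fin n)) :=
      (fixSub _).mul_mem hk₁.2 hkg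
    have hE : mat (k₁ * (k * g)) *ᵥ (E j : Vec n F) = E j := by rw [mul_act]; exact hk₁p
    -- second vector
    have hw1 : (mat (k₁ * (k * g)) *ᵥ (Fv j : Vec n F)) (Sum.inr j) = 1 := by
      rw [act_coord_inr hE]; simp
    have hwS : ∀ i, i ∉ {i | i ∉ s} → (mat (k₁ * (k * g)) *ᵥ (Fv j : Vec n F)) (Sum.inl i) = 0 ∧
        (mat (k₁ * (k * g)) *ᵥ (Fv j : Vec n F)) (Sum.inr i) = 0 := by
      intro i hi
      have his : i ∈ s := by
        by_contra h
        exact hi h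
      have hij : i ≠ j := fun h => hj (h ▸ his)
      rw [act_coord_inl (hfix i his).2, act_coord_inr (hfix i his).1]
      simp [hij]
    have hX' : ∀ i, i ∈ {i | i ∉ s} → i ≠ j → ∀ (c : F) (σ : ↥(Iso n F)),
        IsSiegel (E j) (Fv i) c σ →
        σ ∈ K ⊓ fixSub (F := F) (↑s : Set (Fin n)) ⊓ fixVec (E j : Vec n F) := by
      intro i hi hij c σ hσ
      refine ⟨⟨hX j i (Set.mem_univ _) (Set.mem_univ _) (Ne.symm hij) c σ hσ, ?_⟩, ?_⟩
      · intro l hl
        exact X_fix hσ (fun h => hj (by rw [← h]; exact hl)) (fun h => hi (by rw [← h]; exact hl))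
      · exact X_fixE hσ (Ne.symm hij)
    have hY' : ∀ i, i ∈ {i | i ∉ s} → i ≠ j → ∀ (c : F) (σ : ↥(Iso n F)),
        IsSiegel (E j) (E i) c σ →
        σ ∈ K ⊓ fixSub (F := F) (↑s : Set (Fin n)) ⊓ fixVec (E j : Vec n F) := by
      intro i hi hij c σ hσ
      refine ⟨⟨hY j i (Set.mem_univ _) (Set.mem_univ _) (Ne.symm hij) c σ hσ, ?_⟩, ?_⟩
      · intro l hl
        exact Y_fix hσ (fun h => hj (by rw [← h]; exact hl)) (fun h => hi (by rw [← h]; exact hl))
      · exact Y_fixE hσ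
    obtain ⟨k₂, hk₂, hk₂1, hk₂0⟩ := clear_aux j {i | i ∉ s} hj _ hX' hY' Finset.univ
      (mat (k₁ * (k * g)) *ᵥ (Fv j : Vec n F)) hw1 hwS
      (fun i hi => absurd (Finset.mem_univ i) hi)
    have hQ' : QF n F (mat k₂ *ᵥ (mat (k₁ * (k * g)) *ᵥ (Fv j : Vec n F))) = 0 := by
      rw [Q_act, Q_act]; exact Q_Fv j
    have hjl : (mat k₂ *ᵥ (mat (k₁ * (k * g)) *ᵥ (Fv j : Vec n F))) (Sum.inl j) = 0 := by
      have h1 : QF n F (mat k₂ *ᵥ (mat (k₁ * (k * g)) *ᵥ (Fv j : Vec n F))) =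
          (mat k₂ *ᵥ (mat (k₁ * (k * g)) *ᵥ (Fv j : Vec n F))) (Sum.inl j) := by
        unfold QF Cfsg.quadFormPlus
        rw [Finset.sum_eq_single j]
        · rw [hk₂1, mul_one]
        · intro i _ hi
          rw [(hk₂0 i hi).1, zero_mul]
        · intro h
          exact absurd (Finset.mem_univ _) h
      rw [← h1]; exact hQ'
    have hF : mat k₂ *ᵥ (mat (k₁ * (k * g)) *ᵥ (Fv j : Vec n F)) = Fv j := by
      funext x
      rcases x with i | i
      · by_cases hi : i = j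
        · rw [hi, hjl]; simp
        · rw [(hk₂0 i hi).1]; simp [hi]
      · by_cases hi : i = j
        · rw [hi, hk₂1]; simp
        · rw [(hk₂0 i hi).2]; simp [hi]
    refine ⟨k₂ * k₁ * k, K.mul_mem (K.mul_mem hk₂.1.1 hk₁.1) hk, ?_⟩
    have hassoc : k₂ * k₁ * k * g = k₂ * (k₁ * (k * g)) := by group
    rw [hassoc]
    intro i hi
    have hi' : i = j ∨ i ∈ s := by
      have : i ∈ insert j s := hi
      rwa [Finset.mem_insert] at this
    rcases hi' with rfl | his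
    · constructor
      · rw [mul_act, hE]; exact hk₂.2
      · rw [mul_act]; exact hF
    · exact (fixSub _).mul_mem hk₂.1.2 hfix i his

/-! ## The stabiliser `N a` of the frame vectors off `a` -/

/-- the isometries fixing `e_i, f_i` for all `i ≠ a`. -/
def N (a : Fin n) : Subgroup ↥(Iso n F) := fixSub (F := F) {i | i ≠ a}

theorem ext_basis {σ τ : ↥(Iso n F)}
    (hE : ∀ i, mat σ *ᵥ (E i : Vec n F) = mat τ *ᵥ (E i : Vec n F))
    (hF : ∀ i, mat σ *ᵥ (Fv i : Vec n F) = mat τ *ᵥ (Fv i : Vec n F)) : σ = τ := by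
  apply Subtype.ext
  apply Units.ext
  apply Matrix.ext_of_mulVec_single
  intro k
  rcases k with i | i
  · exact hE i
  · exact hF i

theorem supp_eq (x : Vec n F) (a : Fin n)
    (h : ∀ i, i ≠ a → x (Sum.inl i) = 0 ∧ x (Sum.inr i) = 0) :
    x = x (Sum.inl a) • (E a : Vec n F) + x (Sum.inr a) • (Fv a : Vec n F) := by
  funext k
  rcases k with i | i
  · by_cases hi : i = a
    · rw [hi]; simp
    · rw [(h i hi).1]; simp [hi]
  · by_cases hi : i = a
    · rw [hi]; simp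
    · rw [(h i hi).2]; simp [hi]

theorem Q_supp (α β : F) (a : Fin n) :
    QF n F (α • (E a : Vec n F) + β • (Fv a : Vec n F)) = α * β := by
  rw [Q_add, Q_smul, Q_smul, Q_E, Q_Fv, B_smul_left, B_smul_right, B_E_Fv, if_pos rfl]
  ring

theorem B_supp (α β γ δ : F) (a : Fin n) :
    B (α • (E a : Vec n F) + β • (Fv a : Vec n F)) (γ • (E a : Vec n F) + δ • (Fv a : Vec n F)) =
      α * δ + β * γ := by
  rw [B_add_left, B_add_right, B_add_right, B_smul_left, B_smul_left, B_smul_left, B_smul_left,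
    B_smul_right, B_smul_right, B_smul_right, B_smul_right, B_E_E, B_Fv_Fv, B_E_Fv, B_Fv_E,
    if_pos rfl]
  ring

theorem N_form {a : Fin n} {σ : ↥(Iso n F)} (hσ : σ ∈ N (F := F) a) (v : Vec n F)
    (hv : ∀ i, i ≠ a → v (Sum.inl i) = 0 ∧ v (Sum.inr i) = 0) :
    ∃ α β : F, mat σ *ᵥ v = α • (E a : Vec n F) + β • (Fv a : Vec n F) := by
  refine ⟨_, _, supp_eq _ a ?_⟩
  intro i hi
  rw [act_coord_inl (hσ i hi).2, act_coord_inr (hσ i hi).1]
  exact hv i hi

theorem N_cases {a : Fin n} {σ : ↥(Iso n F)} (hσ : σ ∈ N (F := F) a) :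
    (∃ t : F, t ≠ 0 ∧ mat σ *ᵥ (E a : Vec n F) = t • (E a : Vec n F) ∧
      mat σ *ᵥ (Fv a : Vec n F) = t⁻¹ • (Fv a : Vec n F)) ∨
    (∃ t : F, t ≠ 0 ∧ mat σ *ᵥ (E a : Vec n F) = t • (Fv a : Vec n F) ∧
      mat σ *ᵥ (Fv a : Vec n F) = t⁻¹ • (E a : Vec n F)) := by
  obtain ⟨α, β, hx⟩ := N_form hσ (E a : Vec n F) (by intro i hi; simp [hi])
  obtain ⟨γ, δ, hy⟩ := N_form hσ (Fv a : Vec n F) (by intro i hi; simp [hi])
  have h1 : α * β = 0 := by
    have h := Q_act σ (E a : Vec n F)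
    rw [Q_E, hx, Q_supp] at h
    exact h
  have h2 : γ * δ = 0 := by
    have h := Q_act σ (Fv a : Vec n F)
    rw [Q_Fv, hy, Q_supp] at h
    exact h
  have h3 : α * δ + β * γ = 1 := by
    have h := B_act σ (E a : Vec n F) (Fv a : Vec n F)
    rw [hx, hy, B_supp, B_E_Fv, if_pos rfl] at h
    exact h
  rcases mul_eq_zero.1 h1 with hα | hβ
  · right
    rw [hα, zero_mul, zero_add] at h3
    have hβ0 : β ≠ 0 := left_ne_zero_of_mul_eq_one h3
    have hγ : γ = β⁻¹ := eq_inv_of_mul_eq_one_right h3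
    have hδ : δ = 0 := by
      rcases mul_eq_zero.1 h2 with h | h
      · rw [hγ] at h
        exact absurd h (inv_ne_zero hβ0)
      · exact h
    exact ⟨β, hβ0, by rw [hx, hα, zero_smul, zero_add], by rw [hy, hδ, zero_smul, add_zero, hγ]⟩
  · left
    rw [hβ, zero_mul, add_zero] at h3
    have hα0 : α ≠ 0 := left_ne_zero_of_mul_eq_one h3
    have hδ : δ = α⁻¹ := eq_inv_of_mul_eq_one_right h3
    have hγ : γ = 0 := by
      rcases mul_eq_zero.1 h2 with h | h
      · exact h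
      · rw [hδ] at h
        exact absurd h (inv_ne_zero hα0)
    exact ⟨α, hα0, by rw [hx, hβ, zero_smul, add_zero], by rw [hy, hγ, zero_smul, zero_add, hδ]⟩

/-! ## The torus elements `d(w²)` -/

theorem sl2_mem (K : Subgroup ↥(Iso n F))
    (hK : ∀ (p r : Vec n F) (c : F) (σ : ↥(Iso n F)), IsSingLine p r → IsSiegel p r c σ → σ ∈ K)
    {p r s t : Vec n F} (h : Hyp4 p r s t) (hpr : IsSingLine p r) (hst : IsSingLine s t)
    (M : Matrix.SpecialLinearGroup (Fin 2) F) : sl2Hom h M ∈ K := by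
  have htop : K.comap (sl2Hom h) = ⊤ := by
    apply Cfsg.Agent.Lib.Helper5.eq_top_of_transvection_mem
    intro i j hij c
    rw [Subgroup.mem_comap]
    fin_cases i <;> fin_cases j
    · exact absurd rfl hij
    · apply hK p r c _ hpr
      intro v
      rw [sl2Hom_act, sl2Lin_apply]
      simp only [Matrix.SpecialLinearGroup.transvection_coe,
        Cfsg.Agent.Lib.Helper5.transvection_apply_entry]
      simp
      module
    · apply hK s t (-c) _ hst
      intro v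
      rw [sl2Hom_act, sl2Lin_apply]
      simp only [Matrix.SpecialLinearGroup.transvection_coe,
        Cfsg.Agent.Lib.Helper5.transvection_apply_entry]
      simp
      module
    · exact absurd rfl hij
  have hM : M ∈ K.comap (sl2Hom h) := by rw [htop]; exact Subgroup.mem_top M
  exact hM

/-- the diagonal matrix `diag(w, w⁻¹)` of `SL₂(F)`. -/
noncomputable def dg (w : F) (hw : w ≠ 0) : Matrix.SpecialLinearGroup (Fin 2) F :=
  ⟨!![w, 0; 0, w⁻¹], by rw [Matrix.det_fin_two]; simp [hw]⟩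

theorem dg_act {p r s t : Vec n F} (h : Hyp4 p r s t) (w : F) (hw : w ≠ 0) (v : Vec n F) :
    mat (sl2Hom h (dg w hw)) *ᵥ v = v + ((w - 1) * B v s) • p + ((w⁻¹ - 1) * B v r) • t
      + ((w - 1) * B v t) • r + ((w⁻¹ - 1) * B v p) • s := by
  rw [sl2Hom_act, sl2Lin_apply]
  simp only [dg, Matrix.of_apply, Matrix.cons_val', Matrix.cons_val_zero, Matrix.cons_val_one,
    Matrix.cons_val_fin_one]
  module

theorem dg_p {p r s t : Vec n F} (h : Hyp4 p r s t) (w : F) (hw : w ≠ 0) :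
    mat (sl2Hom h (dg w hw)) *ᵥ p = w • p := by
  rw [dg_act, h.ps, h.pr, h.pt, h.pp]; module

theorem dg_r {p r s t : Vec n F} (h : Hyp4 p r s t) (w : F) (hw : w ≠ 0) :
    mat (sl2Hom h (dg w hw)) *ᵥ r = w • r := by
  rw [dg_act, h.rs, h.rr, h.rt, h.rp]; module

theorem dg_s {p r s t : Vec n F} (h : Hyp4 p r s t) (w : F) (hw : w ≠ 0) :
    mat (sl2Hom h (dg w hw)) *ᵥ s = w⁻¹ • s := by
  rw [dg_act, h.ss, h.sr, h.st, h.sp]; module

theorem dg_t {p r s t : Vec n F} (h : Hyp4 p r s t) (w : F) (hw : w ≠ 0) :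
    mat (sl2Hom h (dg w hw)) *ᵥ t = w⁻¹ • t := by
  rw [dg_act, h.ts, h.tr, h.tt, h.tp]; module

theorem dg_perp {p r s t : Vec n F} (h : Hyp4 p r s t) (w : F) (hw : w ≠ 0) (v : Vec n F)
    (h1 : B v s = 0) (h2 : B v r = 0) (h3 : B v t = 0) (h4 : B v p = 0) :
    mat (sl2Hom h (dg w hw)) *ᵥ v = v := by
  rw [dg_act, h1, h2, h3, h4]; module

/-- the second hyperbolic quadruple `(e_a, f_b, f_a, e_b)`. -/
theorem hyp4' {a b : Fin n} (hab : a ≠ b) : Hyp4 (E a : Vec n F) (Fv b) (Fv a) (E b) where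
  ps := by rw [B_E_Fv, if_pos rfl]
  rt := by rw [B_Fv_E, if_pos rfl]
  pt := B_E_E a b
  rs := B_Fv_Fv b a
  pr := by rw [B_E_Fv, if_neg hab]
  st := by rw [B_Fv_E, if_neg hab]
  Qp := Q_E a
  Qr := Q_Fv b
  Qs := Q_Fv a
  Qt := Q_E b

/-- an element of `N a` scaling `e_a` by a square lies in `K0`. -/
theorem sq_mem {a b : Fin n} (hab : a ≠ b) (σ : ↥(Iso n F)) (hσ : σ ∈ N (F := F) a) (w : F)
    (hw : w ≠ 0) (h : mat σ *ᵥ (E a : Vec n F) = (w * w) • (E a : Vec n F)) : σ ∈ K0 n F := by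
  have hK : ∀ (p r : Vec n F) (c : F) (τ : ↥(Iso n F)), IsSingLine p r → IsSiegel p r c τ →
      τ ∈ K0 n F := fun p r c τ hpr hτ => siegel_mem_K0 hpr hτ
  have hD1 := sl2_mem (K0 n F) hK (hyp4 (F := F) hab) (isSingLine_E_E hab)
    (isSingLine_Fv_Fv hab) (dg w hw)
  have hD2 := sl2_mem (K0 n F) hK (hyp4' (F := F) hab) (isSingLine_E_Fv hab)
    (isSingLine_Fv_E hab) (dg w hw)
  have hww : w * w ≠ 0 := mul_ne_zero hw hw
  have hσF : mat σ *ᵥ (Fv a : Vec n F) = (w⁻¹ * w⁻¹) • (Fv a : Vec n F) := by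
    rcases N_cases hσ with ⟨t, ht, h1, h2⟩ | ⟨t, ht, h1, h2⟩
    · have e : t = w * w := by
        have h3 := congrFun (h1.symm.trans h) (Sum.inl a)
        simpa using h3
      rw [h2, e, mul_inv]
    · exfalso
      have h3 := congrFun (h1.symm.trans h) (Sum.inl a)
      simp at h3
      exact hw h3
  have e : σ = sl2Hom (hyp4 (F := F) hab) (dg w hw) * sl2Hom (hyp4' (F := F) hab) (dg w hw) := by
    apply ext_basis
    · intro i
      rw [mul_act]
      by_cases hia : i = a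
      · rw [hia, h, dg_p, Matrix.mulVec_smul, dg_p, smul_smul]
      · by_cases hib : i = b
        · rw [hib, dg_t, Matrix.mulVec_smul, dg_r, smul_smul, inv_mul_cancel₀ hw, one_smul]
          exact (hσ b (Ne.symm hab)).1
        · rw [dg_perp (hyp4' (F := F) hab) w hw (E i) (by rw [B_E_Fv, if_neg hia])
            (by rw [B_E_Fv, if_neg hib]) (B_E_E i b) (B_E_E i a),
            dg_perp (hyp4 (F := F) hab) w hw (E i) (by rw [B_E_Fv, if_neg hia]) (B_E_E i b)
            (by rw [B_E_Fv, if_neg hib]) (B_E_E i a)]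
          exact (hσ i hia).1
    · intro i
      rw [mul_act]
      by_cases hia : i = a
      · rw [hia, hσF, dg_s, Matrix.mulVec_smul, dg_s, smul_smul]
      · by_cases hib : i = b
        · rw [hib, dg_r, Matrix.mulVec_smul, dg_t, smul_smul, mul_inv_cancel₀ hw, one_smul]
          exact (hσ b (Ne.symm hab)).2
        · rw [dg_perp (hyp4' (F := F) hab) w hw (Fv i) (B_Fv_Fv i a) (B_Fv_Fv i b)
            (by rw [B_Fv_E, if_neg hib]) (by rw [B_Fv_E, if_neg hia]),
            dg_perp (hyp4 (F := F) hab) w hw (Fv i) (B_Fv_Fv i a) (by rw [B_Fv_E, if_neg hib])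
            (B_Fv_Fv i b) (by rw [B_Fv_E, if_neg hia])]
          exact (hσ i hia).2
  rw [e]
  exact (K0 n F).mul_mem hD1 hD2

/-! ## `O / K0` is abelian -/

/-- two elements of `N a` whose images of `e_a` differ by a square are congruent mod `K0`. -/
theorem key_mem {a b : Fin n} (hab : a ≠ b) (x y : ↥(Iso n F)) (hx : x ∈ N (F := F) a)
    (hy : y ∈ N (F := F) a) (w : F) (hw : w ≠ 0)
    (h : mat x *ᵥ (E a : Vec n F) = (w * w) • (mat y *ᵥ (E a : Vec n F))) :
    y⁻¹ * x ∈ K0 n F := by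
  apply sq_mem hab (y⁻¹ * x) ((N a).mul_mem ((N a).inv_mem hy) hx) w hw
  rw [mul_act, h, Matrix.mulVec_smul, inv_act]

theorem N_comm {a b : Fin n} (hab : a ≠ b) (h₁ h₂ : ↥(Iso n F)) (hh₁ : h₁ ∈ N (F := F) a)
    (hh₂ : h₂ ∈ N (F := F) a) : (h₂ * h₁)⁻¹ * (h₁ * h₂) ∈ K0 n F := by
  have hN12 := (N a).mul_mem hh₁ hh₂
  have hN21 := (N a).mul_mem hh₂ hh₁
  rcases N_cases hh₁ with ⟨t₁, ht₁, a1, b1⟩ | ⟨t₁, ht₁, a1, b1⟩ <;>
    rcases N_cases hh₂ with ⟨t₂, ht₂, a2, b2⟩ | ⟨t₂, ht₂, a2, b2⟩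
  · -- diagonal, diagonal
    apply key_mem hab (h₁ * h₂) (h₂ * h₁) hN12 hN21 1 one_ne_zero
    rw [mul_act, mul_act, a2, a1, Matrix.mulVec_smul, Matrix.mulVec_smul, a1, a2, smul_smul,
      smul_smul, smul_smul]
    congr 1
    ring
  · -- diagonal, swap
    apply key_mem hab (h₁ * h₂) (h₂ * h₁) hN12 hN21 t₁⁻¹ (inv_ne_zero ht₁)
    rw [mul_act, mul_act, a2, a1, Matrix.mulVec_smul, Matrix.mulVec_smul, b1, a2, smul_smul,
      smul_smul, smul_smul]
    congr 1
    field_simp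
  · -- swap, diagonal
    apply key_mem hab (h₁ * h₂) (h₂ * h₁) hN12 hN21 t₂ ht₂
    rw [mul_act, mul_act, a2, a1, Matrix.mulVec_smul, Matrix.mulVec_smul, a1, b2, smul_smul,
      smul_smul, smul_smul]
    congr 1
    field_simp
  · -- swap, swap
    apply key_mem hab (h₁ * h₂) (h₂ * h₁) hN12 hN21 (t₂ * t₁⁻¹)
      (mul_ne_zero ht₂ (inv_ne_zero ht₁))
    rw [mul_act, mul_act, a2, a1, Matrix.mulVec_smul, Matrix.mulVec_smul, b1, b2, smul_smul,
      smul_smul, smul_smul]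
    congr 1
    field_simp

theorem K0_hasX : HasX Set.univ (K0 n F) := by
  intro i j _ _ hij c σ hσ
  exact siegel_mem_K0 (isSingLine_E_Fv hij) hσ

theorem K0_hasY : HasY Set.univ (K0 n F) := by
  intro i j _ _ hij c σ hσ
  exact siegel_mem_K0 (isSingLine_E_E hij) hσ

theorem K0_hasZ : HasZ Set.univ (K0 n F) := by
  intro i j _ _ hij c σ hσ
  exact siegel_mem_K0 (isSingLine_Fv_Fv hij) hσ

/-- every isometry is congruent mod `K0` to an element of `N a`. -/
theorem exists_mul_mem_N (g : ↥(Iso n F)) (a : Fin n) :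
    ∃ k ∈ K0 n F, k * g ∈ N (F := F) a := by
  classical
  obtain ⟨k, hk, hkg⟩ := frame_red (K0 n F) K0_hasX K0_hasY K0_hasZ g a (Finset.univ.erase a)
    (by simp)
  refine ⟨k, hk, ?_⟩
  intro i hi
  exact hkg i (by
    have hia : i ≠ a := hi
    simp [hia])

theorem comm_mem_K0 (hn : 2 ≤ n) (g₁ g₂ : ↥(Iso n F)) :
    g₁ * g₂ * g₁⁻¹ * g₂⁻¹ ∈ K0 n F := by
  have : (K0 n F).Normal := K0_normal
  obtain ⟨a, b, hab⟩ : ∃ a b : Fin n, a ≠ b :=
    ⟨⟨0, by omega⟩, ⟨1, by omega⟩, by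
      intro h
      have := congrArg Fin.val h
      simp at this⟩
  obtain ⟨k₁, hk₁, h₁⟩ := exists_mul_mem_N g₁ a
  obtain ⟨k₂, hk₂, h₂⟩ := exists_mul_mem_N g₂ a
  have e1 : (QuotientGroup.mk g₁ : ↥(Iso n F) ⧸ K0 n F) = QuotientGroup.mk (k₁ * g₁) := by
    rw [QuotientGroup.mk_mul, (QuotientGroup.eq_one_iff k₁).2 hk₁, one_mul]
  have e2 : (QuotientGroup.mk g₂ : ↥(Iso n F) ⧸ K0 n F) = QuotientGroup.mk (k₂ * g₂) := by
    rw [QuotientGroup.mk_mul, (QuotientGroup.eq_one_iff k₂).2 hk₂, one_mul]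
  have hc : (QuotientGroup.mk (k₁ * g₁) : ↥(Iso n F) ⧸ K0 n F) * QuotientGroup.mk (k₂ * g₂) =
      QuotientGroup.mk (k₂ * g₂) * QuotientGroup.mk (k₁ * g₁) := by
    rw [← QuotientGroup.mk_mul, ← QuotientGroup.mk_mul]
    exact (QuotientGroup.eq.2 (N_comm hab (k₁ * g₁) (k₂ * g₂) h₁ h₂)).symm
  rw [← QuotientGroup.eq_one_iff, QuotientGroup.mk_mul, QuotientGroup.mk_mul,
    QuotientGroup.mk_mul, QuotientGroup.mk_inv, QuotientGroup.mk_inv, e1, e2, hc]
  group

/-! ## Main results -/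

/-- `Ω ≤ K0` (every field, `n ≥ 2`). -/
theorem omega_le_K0 (hn : 2 ≤ n) : Cfsg.Omega F (Cfsg.quadFormPlus n F) ≤ K0 n F := by
  show commutator ↥(Iso n F) ≤ K0 n F
  rw [commutator_def, Subgroup.commutator_le]
  intro g₁ _ g₂ _
  rw [commutatorElement_def]
  exact comm_mem_K0 hn g₁ g₂

/-- a subgroup containing all root elements contains every Siegel transvection. -/
theorem K0_le (hn : 3 ≤ n) (K : Subgroup ↥(Iso n F)) (hX : HasX Set.univ K)
    (hY : HasY Set.univ K) (hZ : HasZ Set.univ K) : K0 n F ≤ K := by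
  unfold K0
  rw [Subgroup.closure_le]
  rintro σ ⟨p, r, c, hpr, hσ⟩
  exact pkgLineAny n F hn K hX hY hZ p r hpr
    ((Cfsg.Agent.Lib.Helper67.Siegel.pkgParam n F p r hpr σ).2 ⟨c, hσ⟩)

/-- **[OMEGA, D-type, every field]** a subgroup of `O(Q)` containing all root elements
`X_{ij}(c)`, `Y_{ij}(c)`, `Z_{ij}(c)` contains `Ω(quadFormPlus n F)`, `n ≥ 3`. -/
theorem omega_le_of_root (hn : 3 ≤ n) (K : Subgroup ↥(Iso n F)) (hX : HasX Set.univ K)
    (hY : HasY Set.univ K) (hZ : HasZ Set.univ K) :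
    Cfsg.Omega F (Cfsg.quadFormPlus n F) ≤ K :=
  (omega_le_K0 (by omega)).trans (K0_le hn K hX hY hZ)

/-- [BRIDGE] for every field. -/
theorem bridge_any (hn : 3 ≤ n) (K : Subgroup ↥(Iso n F))
    (hK : ∀ p r : Vec n F, IsSingLine p r → T p r ≤ K) :
    Cfsg.Omega F (Cfsg.quadFormPlus n F) ≤ K := by
  refine (omega_le_K0 (by omega)).trans ?_
  unfold K0
  rw [Subgroup.closure_le]
  rintro σ ⟨p, r, c, hpr, hσ⟩
  exact hK p r hpr ((Cfsg.Agent.Lib.Helper67.Siegel.pkgParam n F p r hpr σ).2 ⟨c, hσ⟩)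

/-- `Ω(quadFormPlus n F)` is the subgroup generated by all Siegel transvections
(every field, `n ≥ 3`). -/
theorem K0_eq_omega (hn : 3 ≤ n) : K0 n F = Cfsg.Omega F (Cfsg.quadFormPlus n F) := by
  obtain ⟨hX, hY, hZ⟩ := root_mem_omega (F := F) hn
  exact le_antisymm (K0_le hn _ hX hY hZ) (omega_le_K0 (by omega))

/-- the set of the standard root elements. -/
def rootSet (n : ℕ) (F : Type u) [Field F] : Set ↥(Iso n F) :=
  {σ | ∃ (i j : Fin n) (c : F), i ≠ j ∧
    (IsSiegel (E i) (Fv j) c σ ∨ IsSiegel (E i) (E j) c σ ∨ IsSiegel (Fv i) (Fv j) c σ)}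

/-- **`Ω(quadFormPlus n F)` is generated by the standard root elements** (every field,
`n ≥ 3`). -/
theorem omega_eq_closure_rootSet (hn : 3 ≤ n) :
    Cfsg.Omega F (Cfsg.quadFormPlus n F) = Subgroup.closure (rootSet n F) := by
  obtain ⟨hX, hY, hZ⟩ := root_mem_omega (F := F) hn
  apply le_antisymm
  · apply omega_le_of_root hn
    · intro i j _ _ hij c σ hσ
      exact Subgroup.subset_closure ⟨i, j, c, hij, Or.inl hσ⟩
    · intro i j _ _ hij c σ hσ
      exact Subgroup.subset_closure ⟨i, j, c, hij, Or.inr (Or.inl hσ)⟩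
    · intro i j _ _ hij c σ hσ
      exact Subgroup.subset_closure ⟨i, j, c, hij, Or.inr (Or.inr hσ)⟩
  · rw [Subgroup.closure_le]
    rintro σ ⟨i, j, c, hij, h | h | h⟩
    · exact hX i j (Set.mem_univ _) (Set.mem_univ _) hij c σ h
    · exact hY i j (Set.mem_univ _) (Set.mem_univ _) hij c σ h
    · exact hZ i j (Set.mem_univ _) (Set.mem_univ _) hij c σ h

end

end Cfsg.Agent.Lib.Helper67.CHO
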